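import Cfsg.Agent.H556.OmHall
import Cfsg.Agent.H556.OmClosed
import Cfsg.Agent.H170.Fl.Claim
import Cfsg.Agent.H170.Fl.Perm

/-!
# Solvable 3'-subgroups of `Ω(V)` of odd index have normal 2-complements (helper170)

A variant of helper556's `OmHall`: the claim (B) is only needed for solvable groups (`claimB`), and the permutation
group on the blocks is a 2-group by `perm_two`.
-/

set_option autoImplicit false
set_option linter.unusedSectionVars false

namespace Cfsg.Agent.H170.Fl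

open Module QuadraticMap Cfsg.Agent.H167.OP Cfsg.Agent.H170.HL Cfsg.Agent.H170.HL.OmRow Cfsg.Agent.H556.Om
open Subgroup Cfsg.Agent.H553.ExtRed

variable {F : Type*} [Field F] {ι : Type} [Fintype ι] [DecidableEq ι] {Q : QuadraticForm F (ι → F)}

/-- the hypotheses on the subgroup -/
structure HS (Q : QuadraticForm F (ι → F)) (H : Subgroup (Cfsg.Omega F (⇑Q))) : Prop where
  gq : GoodQ Q
  two : (2 : F) ≠ 0
  sol : Group.IsSolvable H
  idx : ¬ 2 ∣ H.index
  three : ¬ 3 ∣ Nat.card H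
  card : (Nat.card H : F) ≠ 0

namespace HS

variable {H : Subgroup (Cfsg.Omega F (⇑Q))} {m : ℕ} {E : Fin m × A4 → ι → F}

/-- the claim inside `H` -/
theorem claim [Finite F] (h : HS Q H) {R R' : Subgroup (Cfsg.Omega F (⇑Q))} (hR : QR (rep (inc (⇑Q))) R)
    (hR' : QR (rep (inc (⇑Q))) R') (hRH : R ≤ H) (hRH' : R' ≤ H) :
    CV (rep (inc (⇑Q))) R = CV (rep (inc (⇑Q))) R' ∨
      ∀ u ∈ CV (rep (inc (⇑Q))) R, ∀ u' ∈ CV (rep (inc (⇑Q))) R', polarBilin Q u u' = 0 := by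
  have hfin : Finite (Cfsg.Omega F (⇑Q)) := inferInstance
  have hle : R ⊔ R' ≤ H := sup_le hRH hRH'
  have hdvd := Subgroup.card_dvd_of_le hle
  refine claimB (rep (inc (⇑Q))) (fun a b hab => rep_inj (Q := Q) hab) h.two (polarBilin Q)
    (fun g u v => polar_omega g u v) (fun u v => polar_symm u v) (fun x hx => h.gq.nd.2 x hx) hR hR'
    (fun hd => h.three (hd.trans hdvd)) (fun h0 => h.card ?_) ?_
  · obtain ⟨c, hc⟩ := hdvd
    rw [hc, Nat.cast_mul, h0, zero_mul]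
  · have hs := h.sol
    exact Group.isSolvable_of_isSolvable_injective (inclusion_injective hle)

/-- conjugating a family into `H` -/
theorem exists_family [Finite F] (h : HS Q H) (hE : Frame (polarBilin Q) E) :
    ∃ E' : Fin m × A4 → ι → F, Frame (polarBilin Q) E' ∧ ∀ k, RG Q (Ek E' k) ≤ H := by
  have : Finite (Cfsg.Omega F (⇑Q)) := inferInstance
  obtain ⟨g, hg⟩ := exists_conj h.idx (BG_isPGroup h.two hE)
  refine ⟨fun j => rep (inc (⇑Q)) g (E j), hE.map (polar_omega g), fun k => ?_⟩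
  exact RG_conj g (Ek E k) fun x hx => hg x (RG_le_BG h.two hE k hx)

/-- `H` permutes the subspaces -/
theorem exists_image [Finite F] (h : HS Q H) (hE : Frame (polarBilin Q) E)
    (hmax : ∀ E' : Fin (m + 1) × A4 → ι → F, ¬ Frame (polarBilin Q) E') (hR : ∀ k, RG Q (Ek E k) ≤ H)
    {g : Cfsg.Omega F (⇑Q)} (hg : g ∈ H) (k : Fin m) :
    ∃ l, (Us E k).map (rep (inc (⇑Q)) g) = Us E l := by
  have hfin : Finite (Cfsg.Omega F (⇑Q)) := inferInstance
  by_contra hcon
  push Not at hcon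
  set e' : A4 → ι → F := fun a => rep (inc (⇑Q)) g (Ek E k a) with he'
  have hF' : Frame (polarBilin Q) e' := (Ek_frame hE k).map (polar_omega g)
  have hR' : RG Q e' ≤ H := RG_conj g (Ek E k) fun x hx => H.mul_mem (H.mul_mem hg (hR k hx)) (H.inv_mem hg)
  have hCV' : CV (rep (inc (⇑Q))) (RG Q e') = (Us E k).map (rep (inc (⇑Q)) g) := by
    rw [CV_RG h.gq h.two hF', Us, Submodule.map_span, ← Set.range_comp]
    rfl
  have hCV : ∀ l, CV (rep (inc (⇑Q))) (RG Q (Ek E l)) = Us E l := fun l => CV_RG h.gq h.two (Ek_frame hE l)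
  obtain ⟨E', hE'⟩ := exists_cons hE hF' (fun j a => by
    obtain ⟨l, b⟩ := j
    rcases h.claim (qr h.gq h.two (Ek_frame hE l)) (qr h.gq h.two hF') (hR l) hR' with h1 | h1
    · exfalso
      rw [hCV, hCV'] at h1
      exact hcon l h1.symm
    · rw [hCV, CV_RG h.gq h.two hF'] at h1
      exact h1 _ (mem_Us l b) _ (Submodule.subset_span ⟨a, rfl⟩))
  exact hmax E' hE'

theorem exists_perm [Finite F] (h : HS Q H) (hE : Frame (polarBilin Q) E)
    (hmax : ∀ E' : Fin (m + 1) × A4 → ι → F, ¬ Frame (polarBilin Q) E') (hR : ∀ k, RG Q (Ek E k) ≤ H)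
    {g : Cfsg.Omega F (⇑Q)} (hg : g ∈ H) : ∃ τ : Equiv.Perm (Fin m), (g, τ) ∈ NN Q E := by
  choose τ hτ using fun k => h.exists_image hE hmax hR hg k
  have hinj : Function.Injective τ := by
    intro k l hkl
    apply Us_injective h.two hE
    apply map_rep_inj g
    rw [hτ, hτ, hkl]
  exact ⟨Equiv.ofBijective τ (Finite.injective_iff_bijective.mp hinj), hτ⟩

/-- the permutation group induced by `H` is a 2-group -/
theorem perm_pow [Finite F] (h : HS Q H) (hE : Frame (polarBilin Q) E)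
    (hmax : ∀ E' : Fin (m + 1) × A4 → ι → F, ¬ Frame (polarBilin Q) E') (hR : ∀ k, RG Q (Ek E k) ≤ H)
    {g : Cfsg.Omega F (⇑Q)} {τ : Equiv.Perm (Fin m)} (hg : g ∈ H) (hτ : (g, τ) ∈ NN Q E) :
    ∃ n, τ ^ 2 ^ n = 1 := by
  have hfin : Finite (Cfsg.Omega F (⇑Q)) := inferInstance
  let π1 : NN Q E →* Cfsg.Omega F (⇑Q) := (MonoidHom.fst _ _).comp (NN Q E).subtype
  let π2 : NN Q E →* Equiv.Perm (Fin m) := (MonoidHom.snd _ _).comp (NN Q E).subtype
  have h1 : Function.Injective π1 := by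
    rw [injective_iff_map_eq_one]
    rintro ⟨⟨g, τ⟩, hp⟩ hg
    have hg' : g = 1 := hg
    subst hg'
    have : τ = 1 := by
      ext k
      have h3 := hp k
      rw [map_one_rep] at h3
      exact congrArg Fin.val (Us_injective h.two hE h3).symm
    subst this
    rfl
  have h2 : Function.Surjective π2 := by
    intro τ
    obtain ⟨g, hg⟩ := exists_NN h.gq h.two hE τ
    exact ⟨⟨(g, τ), hg⟩, rfl⟩
  have hle : H ≤ π1.range := by
    intro g hg
    obtain ⟨τ, hτ⟩ := h.exists_perm hE hmax hR hg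
    exact ⟨⟨(g, τ), hτ⟩, rfl⟩
  have h4 : IsPGroup 2 ((H.comap π1).map π2) := by
    refine perm_two m (Fin m) (by simp) _ ?_ ?_
    · intro hd
      refine h.idx (hd.trans (((H.comap π1).index_map_dvd h2).trans ?_))
      rw [index_comap, ← relIndex_mul_index hle]
      exact Dvd.intro _ rfl
    · intro hd
      refine h.three (hd.trans ((Subgroup.card_map_dvd _ _).trans ?_))
      have h3 : Nat.card (H.comap π1) = Nat.card ((H.comap π1).map π1) := (card_map_of_injective h1).symm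
      rw [h3]
      exact card_dvd_of_le (map_comap_le _ _)
  have h5 : τ ∈ (H.comap π1).map π2 := ⟨⟨(g, τ), hτ⟩, hg, rfl⟩
  obtain ⟨n, hn⟩ := h4 ⟨τ, h5⟩
  exact ⟨n, by simpa using congrArg Subtype.val hn⟩

/-- odd elements fix the blocks -/
theorem fix [Finite F] (h : HS Q H) (hE : Frame (polarBilin Q) E)
    (hmax : ∀ E' : Fin (m + 1) × A4 → ι → F, ¬ Frame (polarBilin Q) E') (hR : ∀ k, RG Q (Ek E k) ≤ H)
    {r n : ℕ} (hr : r.Prime) (hr2 : r ≠ 2)
    {y : Cfsg.Omega F (⇑Q)} (hy : y ∈ H) (hyn : y ^ r ^ n = 1) (k : Fin m) :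
    (Us E k).map (rep (inc (⇑Q)) y) = Us E k := by
  obtain ⟨τ, hτ⟩ := h.exists_perm hE hmax hR hy
  have h1 := (NN Q E).pow_mem hτ (r ^ n)
  have h3 : τ ^ r ^ n = 1 := by
    ext k
    have h4 := h1 k
    have h5 : (Us E k).map (rep (inc (⇑Q)) (y ^ r ^ n)) = Us E ((τ ^ r ^ n) k) := h4
    rw [hyn, map_one_rep] at h5
    exact congrArg Fin.val (Us_injective h.two hE h5).symm
  obtain ⟨a, ha⟩ := h.perm_pow hE hmax hR hy hτ
  have h5 : Nat.Coprime (r ^ n) (2 ^ a) :=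
    Nat.Coprime.pow _ _ ((Nat.coprime_primes hr Nat.prime_two).mpr hr2)
  have h6 : τ = 1 := by
    rw [← orderOf_eq_one_iff]
    exact Nat.eq_one_of_dvd_coprimes h5 (orderOf_dvd_of_pow_eq_one h3) (orderOf_dvd_of_pow_eq_one ha)
  have h7 := hτ k
  rw [h6] at h7
  exact h7

/-- **`r`-elements of `H` centralise the 2-subgroups they normalise** -/
theorem cen [Finite F] (h : HS Q H) {r n : ℕ} (hr : r.Prime)
    (h5 : 5 ≤ r) {y : Cfsg.Omega F (⇑Q)} (hy : y ∈ H) (hyn : y ^ r ^ n = 1)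
    {D : Subgroup (Cfsg.Omega F (⇑Q))} (hDH : D ≤ H) (hD : IsPGroup 2 D) (hn : Nrm y D) : Cen y D := by
  have hfin : Finite (Cfsg.Omega F (⇑Q)) := inferInstance
  obtain ⟨m, E₀, hE₀, hcard, hmax⟩ := exists_max (Q := Q) h.gq.nd h.two
  obtain ⟨E, hE, hR⟩ := h.exists_family hE₀
  have hfix := h.fix hE hmax hR hr (by omega) hy hyn
  let St : Subgroup (Cfsg.Omega F (⇑Q)) := (NN Q E).comap (MonoidHom.inl _ _)
  have hSt : ∀ g, g ∈ St ↔ ∀ k, (Us E k).map (rep (inc (⇑Q)) g) = Us E k := fun g => Iff.rfl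
  have hyS : y ∈ St := (hSt y).mpr hfix
  have hU : ∀ k, ∀ g ∈ St, ∀ u ∈ Us E k, rep (inc (⇑Q)) g u ∈ Us E k := by
    intro k g hg u hu
    rw [← (hSt g).mp hg k]
    exact ⟨u, hu, rfl⟩
  have hW : ∀ g ∈ St, ∀ u ∈ Wc Q E, rep (inc (⇑Q)) g u ∈ Wc Q E := by
    rintro g hg u hu ⟨k, a⟩
    have h1 : ∀ v ∈ Us E k, polarBilin Q v u = 0 := by
      intro v hv
      induction hv using Submodule.span_induction with
      | mem v hv =>
        obtain ⟨b, rfl⟩ := hv
        exact hu (k, b)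
      | zero => rw [map_zero, LinearMap.zero_apply]
      | add v w _ _ h1 h2 => rw [map_add, LinearMap.add_apply, h1, h2, add_zero]
      | smul c v _ h1 => rw [map_smul, LinearMap.smul_apply, h1, smul_zero]
    have h3 : E (k, a) ∈ (Us E k).map (rep (inc (⇑Q)) g) := by
      rw [(hSt g).mp hg k]
      exact mem_Us k a
    obtain ⟨v, hv, hva⟩ := h3
    rw [← hva, polar_omega]
    exact h1 v hv
  -- the elements of `D ⊓ St`
  have key : ∀ d ∈ D ⊓ St, y * d * y⁻¹ * d⁻¹ = 1 := by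
    have hn1 : Nrm y (D ⊓ St) := fun d hd => ⟨hn d hd.1, St.mul_mem (St.mul_mem hyS hd.2) (St.inv_mem hyS)⟩
    have hD1 : IsPGroup 2 (D ⊓ St : Subgroup _) := hD.to_le inf_le_left
    intro d hd
    apply rep_inj (Q := Q)
    rw [map_one]
    refine ext_frame hE h.two (fun j => ?_) fun w hw => ?_
    · obtain ⟨k, a⟩ := j
      exact partA_sub h.two (hU k) (Us_nondeg h.two hE k) (finrank_Us h.two hE k).le hr h5 hyS hyn inf_le_right hD1
        hn1 d hd _ (mem_Us k a)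
    · have hdW : finrank F (Wc Q E) ≤ 4 := by
        have := finrank_Wc h.two hE
        omega
      exact partA_sub h.two hW (Wc_nondeg h.gq.nd h.two hE) hdW hr h5 hyS hyn inf_le_right hD1 hn1 d hd w hw
  intro d hd
  -- the commutator lies in `D ⊓ St`
  have hcD : y * d * y⁻¹ * d⁻¹ ∈ D := D.mul_mem (hn d hd) (D.inv_mem hd)
  have hcS : y * d * y⁻¹ * d⁻¹ ∈ St := by
    obtain ⟨τ, hτ⟩ := h.exists_perm hE hmax hR (hDH hd)
    have h1 : (y, (1 : Equiv.Perm (Fin m))) ∈ NN Q E := hyS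
    have h3 := (NN Q E).mul_mem ((NN Q E).mul_mem ((NN Q E).mul_mem h1 hτ) ((NN Q E).inv_mem h1))
      ((NN Q E).inv_mem hτ)
    have h4 : (y, (1 : Equiv.Perm (Fin m))) * (d, τ) * (y, (1 : Equiv.Perm (Fin m)))⁻¹ * (d, τ)⁻¹ =
        (y * d * y⁻¹ * d⁻¹, 1) := by
      simp
    rw [h4] at h3
    exact h3
  have h1 := key _ ⟨hcD, hcS⟩
  have h3 : y * (y * d * y⁻¹ * d⁻¹) = (y * d * y⁻¹ * d⁻¹) * y := by
    have h4 : y * (y * d * y⁻¹ * d⁻¹) = (y * (y * d * y⁻¹ * d⁻¹) * y⁻¹ * (y * d * y⁻¹ * d⁻¹)⁻¹) *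
        ((y * d * y⁻¹ * d⁻¹) * y) := by group
    rw [h4, h1, one_mul]
  obtain ⟨k, hk⟩ := hD ⟨_, hcD⟩
  have hk' : (y * d * y⁻¹ * d⁻¹) ^ 2 ^ k = 1 := by simpa using congrArg Subtype.val hk
  have hcop : (2 ^ k).Coprime (r ^ n) :=
    Nat.Coprime.pow _ _ ((Nat.coprime_primes Nat.prime_two hr).mpr (by omega))
  have h6 : y * d * y⁻¹ * d⁻¹ = 1 := comm_order hyn hk' hcop h3 rfl
  have h7 : y * d = (y * d * y⁻¹ * d⁻¹) * (d * y) := by group
  rw [h7, h6, one_mul]

/-- `H` has a normal 2-complement -/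
theorem oddClosed [Finite F] (h : HS Q H) : OddClosed H := by
  have hfin : Finite (Cfsg.Omega F (⇑Q)) := inferInstance
  refine Cfsg.Agent.H556.OmClosed.oddClosed_of_cen ?_
  intro r n hr hr2 hd g hg R hR hgR
  have h5 : 5 ≤ r := by
    by_contra hcon
    push Not at hcon
    have := hr.two_le
    interval_cases r
    · exact hr2 rfl
    · exact h.three hd
    · exact absurd hr (by norm_num)
  have h6 := h.cen hr h5 (y := (g : Cfsg.Omega F (⇑Q))) g.2 (n := n)
    (by exact_mod_cast congrArg Subtype.val hg) (D := R.map H.subtype) (map_subtype_le _) (hR.map _) (by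
      rintro _ ⟨d, hd, rfl⟩
      exact ⟨g * d * g⁻¹, (mem_normalizer_iff.mp hgR d).mp hd, rfl⟩)
  rw [mem_centralizer_iff]
  intro d hd
  exact Subtype.ext (h6 d ⟨d, hd, rfl⟩).symm

end HS

end Cfsg.Agent.H170.Fl
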