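import Cfsg.Agent.H170.Fl.HallS
import Cfsg.Agent.H14.NonSolv
import Cfsg.Agent.H170.HL.OmRows
import Cfsg.Prelude.Def_LieTypeChar

/-!
# The orthogonal rows of S4312, `p ∉ π` (helper170, helper556)

The preimage of a Hall `π`-subgroup (`2 ∈ π`, `3, p ∉ π`) in `Ω(V)` has a normal 2-complement: by helper14's `ns` only
solvable subgroups of odd index have to be treated, and these are treated in `HallS`.
-/

set_option autoImplicit false

namespace Cfsg.Agent.H170.Fl

open Module QuadraticMap Cfsg.Agent.H167.OP Cfsg.Agent.H170.HL Cfsg.Agent.H170.HL.OmRow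
open Subgroup Cfsg Cfsg.Agent.H988.CPi Cfsg.Agent.H553.OddHall Cfsg.Agent.H553.ExtRed

/-- a 3'-subgroup of `Ω(V)` of odd index and of order prime to the characteristic has a normal 2-complement -/
theorem oddClosed_omega {F : Type} [Field F] [Finite F] {ι : Type} [Fintype ι] [DecidableEq ι]
    {Q : QuadraticForm F (ι → F)} (hQ : GoodQ Q) (h2 : (2 : F) ≠ 0) {K : Subgroup (Cfsg.Omega F (⇑Q))}
    (hi : ¬ 2 ∣ K.index) (h3 : ¬ 3 ∣ Nat.card K) (hc : (Nat.card K : F) ≠ 0) :
    Group.IsSolvable K ∧ OddClosed K := by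
  have hfin : Finite (Cfsg.Omega F (⇑Q)) := inferInstance
  have hf2 : Fact (Nat.Prime 2) := ⟨Nat.prime_two⟩
  obtain ⟨T⟩ : Nonempty (Sylow 2 K) := inferInstance
  refine Cfsg.Agent.H14.NonSolv.ns h3 T fun X hTX hX => ?_
  -- the image of `X` in `Ω(V)`
  have hcard : Nat.card (X.map K.subtype) = Nat.card X :=
    card_map_of_injective K.subtype_injective
  have hdvd : Nat.card (X.map K.subtype) ∣ Nat.card K := by
    rw [hcard]
    exact card_subgroup_dvd_card X
  have hXi : ¬ 2 ∣ X.index := by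
    intro hd
    exact T.not_dvd_index (hd.trans (index_dvd_of_le hTX))
  have e : X ≃* X.map K.subtype := X.equivMapOfInjective K.subtype K.subtype_injective
  have hS : HS Q (X.map K.subtype) :=
    { gq := hQ
      two := h2
      sol := Group.isSolvable_of_isSolvable_injective (f := e.symm.toMonoidHom) e.symm.injective
      idx := by
        rw [Subgroup.index_map_subtype]
        intro hd
        rcases (Nat.prime_two.dvd_mul).mp hd with hd | hd
        · exact hXi hd
        · exact hi hd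
      three := fun hd => h3 (hd.trans hdvd)
      card := by
        intro h0
        obtain ⟨c, hc'⟩ := hdvd
        exact hc (by rw [hc', Nat.cast_mul, h0, zero_mul]) }
  exact Cfsg.Agent.H14.NonSolv.OddClosed.of_surjective e.symm.toMonoidHom e.symm.surjective hS.oddClosed

variable {π : Set ℕ}

theorem good_omega {S : Type*} [Group S] [Finite S] [IsSimpleGroup S] (hna : ¬ IsMulCommutative S)
    (h2π : 2 ∈ π) (h3π : 3 ∉ π) (hodd : OddC S) (hE : IsEPiGroup π S) {F : Type} [Field F] [Finite F] {p : ℕ}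
    [CharP F p] (hp : p.Prime) (hpπ : p ∉ π) {ι : Type} [Fintype ι]
    [DecidableEq ι] {Q : QuadraticForm F (ι → F)} (hQ : GoodQ Q) {Q' : (ι → F) → F}
    (hQQ : ⇑Q = Q') (e : S ≃* Cfsg.POmega F Q') : Good π S := by
  subst hQQ
  have hfin : Finite (Cfsg.Omega F (⇑Q)) := inferInstance
  have h2 : (2 : F) ≠ 0 := by
    intro h
    have h1 : ((2 : ℕ) : F) = 0 := by exact_mod_cast h
    rw [CharP.cast_eq_zero_iff F p, Nat.prime_dvd_prime_iff_eq hp Nat.prime_two] at h1
    exact hpπ (h1 ▸ h2π)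
  let φ : Cfsg.Omega F (⇑Q) →* S :=
    (e.symm : Cfsg.POmega F (⇑Q) →* S).comp
      (QuotientGroup.mk' (Subgroup.center (Cfsg.Omega F (⇑Q))))
  have hφ : Function.Surjective φ :=
    e.symm.surjective.comp (QuotientGroup.mk'_surjective _)
  have hφ1 : ∀ k, φ k = 1 → k * k = 1 := by
    intro k h
    have hk : k ∈ Subgroup.center (Cfsg.Omega F (⇑Q)) := by
      rw [← QuotientGroup.eq_one_iff]
      exact e.symm.injective (h.trans (map_one e.symm).symm)
    have h1 := (Cfsg.Agent.LieClassical.OmegaCenter.mem_center_omega_iff Q hQ.nd hQ.card hQ.sing k).mp hk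
    apply inc_injective
    rw [map_mul, map_one]
    have h1' : inc (⇑Q) k = 1 ∨ inc (⇑Q) k = -1 := h1
    rcases h1' with h | h
    · rw [h, one_mul]
    · rw [h, neg_mul_neg, one_mul]
  obtain ⟨H, hH⟩ := hE
  have hH' : IsPiHall π H := hH
  -- the preimage
  have hK : IsPiHall π (H.comap φ) := by
    constructor
    · intro r hr hd
      have := Fact.mk hr
      obtain ⟨x, hx⟩ := exists_prime_orderOf_dvd_card' (G := H.comap φ) r hd
      by_cases h1 : φ (x : Cfsg.Omega F (⇑Q)) = 1
      · have h3 : x * x = 1 := Subtype.ext (hφ1 _ h1)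
        have h4 : r ∣ 2 := by
          rw [← hx]
          exact orderOf_dvd_of_pow_eq_one (by rw [pow_two]; exact h3)
        rw [(Nat.prime_dvd_prime_iff_eq hr Nat.prime_two).mp h4]
        exact h2π
      · apply hH'.1 r hr
        let z : H := ⟨φ x, x.2⟩
        have h3 : z ^ r = 1 := by
          apply Subtype.ext
          show (φ x) ^ r = 1
          rw [← map_pow]
          have : x ^ r = 1 := by rw [← hx, pow_orderOf_eq_one]
          have h4 : (x : Cfsg.Omega F (⇑Q)) ^ r = 1 := congrArg Subtype.val this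
          rw [h4, map_one]
        have h4 : orderOf z = r := orderOf_eq_prime h3 fun h => h1 (congrArg Subtype.val h)
        rw [← h4]
        exact orderOf_dvd_natCard z
    · intro r hr hrπ hd
      rw [index_comap_of_surjective H hφ] at hd
      exact hH'.2 r hr hrπ hd
  have hcl : OddClosed (H.comap φ) :=
    (oddClosed_omega hQ h2 (hK.2 2 Nat.prime_two h2π) (fun hd => h3π (hK.1 3 Nat.prime_three hd)) (by
      intro h0
      rw [CharP.cast_eq_zero_iff F p] at h0
      exact hpπ (hK.1 p hp h0))).2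
  refine good_of_oddClosed hna hodd H hH' h2π ?_
  exact Cfsg.Agent.H14.NonSolv.OddClosed.of_surjective (φ.subgroupComap H)
    (MonoidHom.subgroupComap_surjective_of_surjective φ H hφ) hcl

variable {S : Type*} [Group S] [Finite S] [IsSimpleGroup S]

/-- row `oOdd` of S4312 -/
theorem row_oOdd (hna : ¬ IsMulCommutative S) (h2π : 2 ∈ π) (h3π : 3 ∉ π) (hodd : OddC S)
    (hE : IsEPiGroup π S) : ∀ p : ℕ, p.Prime → p ∉ π → IsPOmegaOddChar p S → PiN π (Nat.card S) ∨ Good π S := by
  intro p hp hpπ hG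
  obtain ⟨F, _, _, hchar, m, hm, hoddF, ⟨e⟩⟩ := hG
  have h2 : (2 : F) ≠ 0 := by
    intro h
    have h1 : ((2 : ℕ) : F) = 0 := by exact_mod_cast h
    rw [CharP.cast_eq_zero_iff F p, Nat.prime_dvd_prime_iff_eq hp Nat.prime_two] at h1
    exact hpπ (h1 ▸ h2π)
  exact Or.inr (good_omega hna h2π h3π hodd hE hp hpπ (goodQ_odd (by omega) h2)
    (Cfsg.Agent.LieClassical.OrthForms.coe_oddForm m F) e)

/-- row `oPlus` of S4312 -/
theorem row_oPlus (hna : ¬ IsMulCommutative S) (h2π : 2 ∈ π) (h3π : 3 ∉ π) (hodd : OddC S)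
    (hE : IsEPiGroup π S) : ∀ p : ℕ, p.Prime → p ∉ π → IsPOmegaPlusChar p S → PiN π (Nat.card S) ∨ Good π S := by
  intro p hp hpπ hG
  obtain ⟨F, _, _, hchar, m, hm, ⟨e⟩⟩ := hG
  exact Or.inr (good_omega hna h2π h3π hodd hE hp hpπ (goodQ_plus (by omega))
    (Cfsg.Agent.LieClassical.OrthForms.coe_plusForm m F) e)

/-- row `oMinus` of S4312 -/
theorem row_oMinus (hna : ¬ IsMulCommutative S) (h2π : 2 ∈ π) (h3π : 3 ∉ π) (hodd : OddC S)
    (hE : IsEPiGroup π S) : ∀ p : ℕ, p.Prime → p ∉ π → IsPOmegaMinusChar p S → PiN π (Nat.card S) ∨ Good π S := by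
  intro p hp hpπ hG
  obtain ⟨F, _, _, hchar, m, a, b, hm, hab, ⟨e⟩⟩ := hG
  exact Or.inr (good_omega hna h2π h3π hodd hE hp hpπ (goodQ_minus (by omega) a b hab)
    (Cfsg.Agent.LieClassical.OrthForms.coe_minusForm (m - 1) F a b) e)

end Cfsg.Agent.H170.Fl
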